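import Cfsg.Agent.OD.Pre
import Cfsg.Agent.H8.C3N
import Cfsg.Agent.H8.C3DA.D0
set_option autoImplicit false
set_option maxRecDepth 100000
set_option Elab.async false
set_option linter.all false
namespace CfH8.C3D
open CfH6 CfH6.D MulAction
theorem iD0 : Rng (chkInvT (fun x => fD (Nat.succ x)) C3N.il 16 240) 0 240 := rng_of 0 1 112 240 (by decide +kernel)
theorem rD0 : Rng (chkRelT (fun x => fD (Nat.succ x)) C3N.rels) 0 240 := rng_of 0 1 112 240 (by decide +kernel)
theorem dD0 : Rng (chkId fD) 0 240 := rng_of 0 1 112 240 (by decide +kernel)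
theorem sD0 : Rng (chkSl fD sa sb 1 112) 17 64 := rng_of 17 0 47 64 (by decide +kernel)
end CfH8.C3D
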